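import Cfsg.Agent.H163.E6.Defs
import Cfsg.Agent.H65.E6Ext
import Cfsg.Agent.H83.Count
import Cfsg.Agent.H83.RedESix

/-!
# S5927: elements of order 2 and 4 of `E₆(q)`, `q` even, on the 27-dimensional module (helper963)

* `Tor.two_two` : an involution has a fixed space of dimension at least 15;
* `Tor.two_four` : an element with `x ^ 4 = 1` has a fixed space of dimension at least 8.
-/

set_option autoImplicit false
set_option linter.unusedSectionVars false

universe u

namespace Cfsg.Agent.H963.E6Two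

open Cfsg Cfsg.Lie Module
open Cfsg.Agent.ChevalleyStructure.E6Min.Tables Cfsg.Agent.ChevalleyStructure.E6Min.Basic
  Cfsg.Agent.ChevalleyStructure.E6Min.Adjoint
open Cfsg.Agent.H952.F4 (ev es matRep)
open Cfsg.Agent.H163.E6
open Cfsg.Agent.H83.ChevInv (PX PX_cons PX_nil)
open Cfsg.Agent.ChevalleyStructure.Elts (InList xG x_of_lt)

/-! ### linear algebra -/

section lin

variable {F : Type*} [Field F] {M : Type*} [AddCommGroup M] [Module F M]

theorem ev_one_eq (T : Module.End F M) : ev T 1 = finrank F (LinearMap.ker (T - 1)) := by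
  unfold ev
  rw [Module.End.eigenspace_def, one_smul]

theorem ev_conj {G : Type*} [Group G] (ρ : Representation F G M) (g x : G) (μ : F) :
    ev (ρ (g * x * g⁻¹)) μ = ev (ρ x) μ := by
  have h1 : ∀ (a : G) (y : G) (v : M), v ∈ Module.End.eigenspace (ρ y) μ →
      ρ a v ∈ Module.End.eigenspace (ρ (a * y * a⁻¹)) μ := by
    intro a y v hv
    rw [Module.End.mem_eigenspace_iff] at hv ⊢
    rw [map_mul, map_mul, Module.End.mul_apply, Module.End.mul_apply, ← Module.End.mul_apply (ρ a⁻¹), ← map_mul,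
      inv_mul_cancel, map_one, Module.End.one_apply, hv, map_smul]
  unfold ev
  symm
  refine LinearEquiv.finrank_eq
    { toFun := fun v => ⟨ρ g v, h1 g x v v.2⟩
      map_add' := fun v w => Subtype.ext (map_add _ _ _)
      map_smul' := fun c v => Subtype.ext (map_smul _ _ _)
      invFun := fun v => ⟨ρ g⁻¹ v, by
        have h2 := h1 g⁻¹ (g * x * g⁻¹) v v.2
        have h3 : g⁻¹ * (g * x * g⁻¹) * g⁻¹⁻¹ = x := by group
        rwa [h3] at h2⟩
      left_inv := fun v => Subtype.ext (by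
        show ρ g⁻¹ (ρ g v) = v
        rw [← Module.End.mul_apply, ← map_mul, inv_mul_cancel, map_one, Module.End.one_apply])
      right_inv := fun v => Subtype.ext (by
        show ρ g (ρ g⁻¹ v) = v
        rw [← Module.End.mul_apply, ← map_mul, mul_inv_cancel, map_one, Module.End.one_apply]) }

theorem finrank_ker_sq_le [FiniteDimensional F M] (T : Module.End F M) :
    finrank F (LinearMap.ker (T * T)) ≤ 2 * finrank F (LinearMap.ker T) := by
  let f : LinearMap.ker (T * T) →ₗ[F] LinearMap.ker T :=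
    { toFun := fun v => ⟨T v, by
        have := v.2
        rw [LinearMap.mem_ker] at this ⊢
        exact this⟩
      map_add' := fun v w => Subtype.ext (map_add _ _ _)
      map_smul' := fun c v => Subtype.ext (map_smul _ _ _) }
  have h1 := LinearMap.finrank_range_add_finrank_ker f
  have h2 : finrank F (LinearMap.range f) ≤ finrank F (LinearMap.ker T) := Submodule.finrank_le _
  have h3 : finrank F (LinearMap.ker f) ≤ finrank F (LinearMap.ker T) := by
    refine LinearMap.finrank_le_finrank_of_injective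
      (f := (LinearMap.ker (T * T)).subtype.comp (LinearMap.ker f).subtype |>.codRestrict (LinearMap.ker T) fun v => by
        have := v.2
        rw [LinearMap.mem_ker] at this ⊢
        exact congrArg Subtype.val this) ?_
    intro a b hab
    have h4 : (((a : LinearMap.ker (T * T)) : M)) = (((b : LinearMap.ker (T * T)) : M)) :=
      congrArg (fun z : LinearMap.ker T => (z : M)) hab
    exact Subtype.ext (Subtype.ext h4)
  omega

/-- vectors with pivots in the fixed space -/
theorem le_ev {m : ℕ} {I : Type*} [Fintype I] (T : Module.End F (I → F)) (v : Fin m → I → F) (piv : Fin m → I)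
    (h1 : ∀ i j, v i (piv j) = if i = j then 1 else 0) (h2 : ∀ i, T (v i) = v i) : m ≤ ev T 1 := by
  classical
  have hmem : ∀ i, v i ∈ T.eigenspace 1 := fun i => by
    rw [Module.End.mem_eigenspace_iff, h2, one_smul]
  have hli : LinearIndependent F (fun i => (⟨v i, hmem i⟩ : T.eigenspace 1)) := by
    rw [Fintype.linearIndependent_iff]
    intro g hg j
    have h3 := congrArg (fun w : T.eigenspace 1 => (w : I → F) (piv j)) hg
    simp only [Submodule.coe_sum, Submodule.coe_smul, Finset.sum_apply, Pi.smul_apply, h1, smul_eq_mul,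
      Submodule.coe_zero, Pi.zero_apply, mul_ite, mul_one, mul_zero, Finset.sum_ite_eq', Finset.mem_univ, if_true] at h3
    exact h3
  have h4 := hli.fintype_card_le_finrank
  rwa [Fintype.card_fin] at h4

end lin

/-! ### the representatives -/

/-- the root element over `ZMod 2` -/
def actZ (r : ℕ) (w : I27 → ZMod 2) : I27 → ZMod 2 := fun x => w x + ((sg r x : ℤ) : ZMod 2) * w (sr r x)

/-- the pivots -/
def pivs : List (List ℕ) :=
  [[0, 1, 2, 3, 4, 5, 6, 7, 8, 9, 10, 11, 12, 13, 14],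
   [0, 1, 2, 3, 4, 5, 6, 7, 8, 9, 11, 12, 14, 15, 17],
   [0, 1, 2, 4, 5, 7, 8, 9, 11, 12, 15, 21, 22, 23, 24],
   [0, 2, 3, 4, 5, 8, 9, 12, 15, 21, 22, 23, 24, 25, 26]]

/-- the second support -/
def exts : List (List (ℕ × ℕ)) := [[], [], [(21, 10)], [(3, 1), (21, 10), (22, 13)]]

def pv (k : ℕ) (i : ℕ) : ℕ := (pivs.getD k []).getD i 0

/-- the fixed vectors -/
def wv (k : ℕ) (i : ℕ) (x : I27) : ZMod 2 :=
  if code x = pv k i ∨ (pv k i, code x) ∈ exts.getD k [] then 1 else 0

theorem chk_piv : ∀ k : Fin 4, ∀ i j : Fin 15, wv k i (dec (pv k j)) = if i = j then 1 else 0 := by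
  decide +kernel

theorem chk_0 : ∀ i : Fin 15, ∀ x : I27, wv 1 i x + ((sg 71 x : ℤ) : ZMod 2) * wv 1 i (sr 71 x) = wv 1 i x := by
  decide +kernel

theorem chk_act0 : ∀ i : Fin 15, ∀ x : I27, actZ 71 (wv 1 i) x = wv 1 i x := by
  decide +kernel

theorem chk_act1 : ∀ i : Fin 15, ∀ x : I27, actZ 71 (actZ 60 (wv 2 i)) x = wv 2 i x := by
  decide +kernel

theorem chk_act2 : ∀ i : Fin 15, ∀ x : I27, actZ 71 (actZ 60 (actZ 44 (wv 3 i))) x = wv 3 i x := by
  decide +kernel

section chev

variable (F : Type u) [Field F]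

/-- products of root elements -/
def UX (L : List ℕ) : ↥(Zgrp F) := (L.map fun r => (⟨zU r 1, zU_mem r 1⟩ : ↥(Zgrp F))).prod

theorem UX_nil : UX F [] = 1 := rfl

theorem UX_cons (r : ℕ) (L : List ℕ) : UX F (r :: L) = ⟨zU r 1, zU_mem r 1⟩ * UX F L := by
  unfold UX; rw [List.map_cons, List.prod_cons]

variable {F}

theorem ad_zU (hD : InList chevE6) {r : ℕ} (hr : r < 72) :
    ((ad F ⟨zU r 1, zU_mem r 1⟩ : chevE6.group F) : GL chevE6.Idx F) = xG hD r 1 := by
  apply Units.ext
  refine P_unique (g := zU r 1) (ad_P ⟨zU r 1, zU_mem _ _⟩) ?_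
  rw [coe_zU hr]
  have h1 := P_root (⟨r, hr⟩ : Fin chevE6.nroots) (1 : F)
  have h2 : ((xG hD r 1 : GL chevE6.Idx F) : Matrix chevE6.Idx chevE6.Idx F) = chevE6.xMat F ⟨r, hr⟩ 1 :=
    x_of_lt (D := chevE6) (F := F) hr 1
  rw [h2]
  exact h1

theorem ad_UX (hD : InList chevE6) (L : List ℕ) (hL : ∀ r ∈ L, r < 72) :
    ((ad F (UX F L) : chevE6.group F) : GL chevE6.Idx F) = PX hD F L := by
  induction L with
  | nil => rw [UX_nil, PX_nil, map_one]; rfl
  | cons r L ih =>
    rw [UX_cons, PX_cons, map_mul, Subgroup.coe_mul, ad_zU hD (hL r (by simp)), ih fun s hs => hL s (by simp [hs])]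

variable [CharP F 2]

theorem zmod_map (w : I27 → ZMod 2) {r : ℕ} (hr : r < 72) :
    V F ⟨zU r 1, zU_mem r 1⟩ (fun x => ZMod.castHom (dvd_refl 2) F (w x)) =
      fun x => ZMod.castHom (dvd_refl 2) F (actZ r w x) := by
  funext x
  rw [V_apply]
  show (((zU r 1 : GL I27 F) : Matrix I27 I27 F).mulVec _) x = _
  rw [coe_zU hr, zM_mulVec]
  unfold actZ
  rw [map_add, map_mul, map_intCast, one_mul]

theorem UX_fix {k : ℕ} {L : List ℕ} (hL : (k = 0 ∧ L = []) ∨ (k = 1 ∧ L = [71]) ∨ (k = 2 ∧ L = [71, 60]) ∨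
    (k = 3 ∧ L = [71, 60, 44])) (i : Fin 15) :
    V F (UX F L) (fun x => ZMod.castHom (dvd_refl 2) F (wv k i x)) = fun x => ZMod.castHom (dvd_refl 2) F (wv k i x) := by
  rcases hL with ⟨rfl, rfl⟩ | ⟨rfl, rfl⟩ | ⟨rfl, rfl⟩ | ⟨rfl, rfl⟩
  · rw [UX_nil, map_one, Module.End.one_apply]
  · rw [UX_cons, UX_nil, mul_one, zmod_map _ (by norm_num)]
    funext x
    rw [chk_act0 i x]
  · rw [UX_cons, UX_cons, UX_nil, mul_one, map_mul, Module.End.mul_apply, zmod_map _ (by norm_num),
      zmod_map _ (by norm_num)]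
    funext x
    exact congrArg _ (chk_act1 i x)
  · rw [UX_cons, UX_cons, UX_cons, UX_nil, mul_one, map_mul, map_mul, Module.End.mul_apply, Module.End.mul_apply,
      zmod_map _ (by norm_num), zmod_map _ (by norm_num), zmod_map _ (by norm_num)]
    funext x
    exact congrArg _ (chk_act2 i x)

theorem ev_UX {k : ℕ} (hk : k < 4) {L : List ℕ} (hL : (k = 0 ∧ L = []) ∨ (k = 1 ∧ L = [71]) ∨ (k = 2 ∧ L = [71, 60]) ∨
    (k = 3 ∧ L = [71, 60, 44])) : 15 ≤ ev (V F (UX F L)) 1 := by
  refine le_ev (V F (UX F L)) (fun i : Fin 15 => fun x => ZMod.castHom (dvd_refl 2) F (wv k i x))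
    (fun j => dec (pv k j)) (fun i j => ?_) (UX_fix hL)
  have h1 := chk_piv ⟨k, hk⟩ i j
  show ZMod.castHom (dvd_refl 2) F (wv k i (dec (pv k j))) = _
  have h2 : wv k i (dec (pv k j)) = if i = j then 1 else 0 := h1
  rw [h2]
  split_ifs
  · exact map_one _
  · exact map_zero _

end chev

end Cfsg.Agent.H963.E6Two

namespace Cfsg.Agent.H963.E6Two.Tor

open Cfsg Cfsg.Lie Module
open Cfsg.Agent.ChevalleyStructure.E6Min.Tables Cfsg.Agent.ChevalleyStructure.E6Min.Basic
  Cfsg.Agent.ChevalleyStructure.E6Min.Adjoint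
open Cfsg.Agent.H952.F4 (ev es matRep)
open Cfsg.Agent.H163.E6

/-- E2: involutions in characteristic 2 -/
theorem two_two {F : Type u} [Field F] [Finite F] [CharP F 2] (x : ↥(Zgrp F)) (hx : x * x = 1) :
    15 ≤ ev (V F x) 1 := by
  have hp : Cfsg.Agent.Nodes.RGDChev.IsType chevE6 6 CoxeterMatrix.E₆ := by
    simp [Cfsg.Agent.Nodes.RGDChev.IsType, Cfsg.Agent.Nodes.RGDChev.typeList]
  have ht : ((ad F x : chevE6.group F) : GL chevE6.Idx F) * ((ad F x : chevE6.group F) : GL chevE6.Idx F) = 1 := by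
    rw [← Subgroup.coe_mul, ← map_mul, hx, map_one]; rfl
  obtain ⟨R, hR, g, hg, he⟩ := Cfsg.Agent.H83.Count.exists_rep (K := F) hp Cfsg.Agent.H83.RedESix.allchk_eq
    (ad F x).2 ht
  obtain ⟨h, hh⟩ := ad_surjective (F := F) ⟨g, hg⟩
  -- the list
  obtain ⟨k, hk, hL⟩ : ∃ k, k < 4 ∧ ((k = 0 ∧ R = []) ∨ (k = 1 ∧ R = [71]) ∨ (k = 2 ∧ R = [71, 60]) ∨
      (k = 3 ∧ R = [71, 60, 44])) := by
    simp only [Cfsg.Agent.H83.RedESix.reps, List.mem_cons, List.not_mem_nil, or_false] at hR
    rcases hR with rfl | rfl | rfl | rfl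
    · exact ⟨0, by norm_num, by simp⟩
    · exact ⟨1, by norm_num, by simp⟩
    · exact ⟨2, by norm_num, by simp⟩
    · exact ⟨3, by norm_num, by simp⟩
  have hR72 : ∀ r ∈ R, r < 72 := by
    rcases hL with ⟨-, rfl⟩ | ⟨-, rfl⟩ | ⟨-, rfl⟩ | ⟨-, rfl⟩ <;> simp
  have h1 : ad F (h * x * h⁻¹) = ad F (UX F R) := by
    apply Subtype.ext
    rw [ad_UX hp.inList R hR72, ← he, map_mul, map_mul, map_inv, hh]
    rfl
  -- the two elements are equal
  set c : ↥(Zgrp F) := (h * x * h⁻¹) * (UX F R)⁻¹ with hc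
  have hadc : ad F c = 1 := by rw [hc, map_mul, map_inv, h1, mul_inv_cancel]
  obtain ⟨hc3, hcc⟩ := Cfsg.Agent.H65.E6Ext.ker_pow hadc
  obtain ⟨s, hs3, hsc⟩ := Cfsg.Agent.H65.E6Ext.ker_scalar hadc
  have hxc : h * x * h⁻¹ = c * UX F R := by rw [hc, inv_mul_cancel_right]
  have hc1 : c = 1 := by
    -- `(c u)² = 1`, `u` fixes a vector
    have h2 : (c * UX F R) * (c * UX F R) = 1 := by
      rw [← hxc]
      have : h * x * h⁻¹ * (h * x * h⁻¹) = h * (x * x) * h⁻¹ := by group
      rw [this, hx]; group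
    let v : I27 → F := fun x => ZMod.castHom (dvd_refl 2) F (wv k (0 : Fin 15) x)
    have h3 : V F (UX F R) v = v := UX_fix hL 0
    have h4 : ∀ w, V F c w = s • w := by
      intro w
      rw [V_apply, hsc, Matrix.smul_mulVec, Matrix.one_mulVec]
    have h5 : (s * s) • v = v := by
      have h6 := congrArg (fun g => V F g v) h2
      simp only [map_mul, map_one, Module.End.mul_apply, Module.End.one_apply] at h6
      rw [h3, h4 v, map_smul, h3, h4 (s • v), smul_smul] at h6
      exact h6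
    have h6 : v (dec (pv k (0 : Fin 15))) = 1 := by
      show ZMod.castHom (dvd_refl 2) F (wv k (0 : Fin 15) (dec (pv k (0 : Fin 15)))) = 1
      have h7 := chk_piv ⟨k, hk⟩ 0 0
      have h8 : wv k (0 : Fin 15) (dec (pv k (0 : Fin 15))) = 1 := by
        rw [if_pos rfl] at h7
        exact h7
      rw [h8, map_one]
    have h7 : s * s = 1 := by
      have h8 := congrFun h5 (dec (pv k (0 : Fin 15)))
      rw [Pi.smul_apply, h6, smul_eq_mul, mul_one] at h8
      exact h8
    have h8 : s = 1 := by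
      have : s ^ 3 = s * s * s := by ring
      rw [this, h7, one_mul] at hs3
      exact hs3
    apply Subtype.ext
    apply Units.ext
    rw [hsc, h8, one_smul]
    rfl
  rw [← ev_conj (V F) h x 1, hxc, hc1, one_mul]
  exact ev_UX hk hL

/-- E2: elements of order 4 in characteristic 2 -/
theorem two_four {F : Type u} [Field F] [Finite F] [CharP F 2] (x : ↥(Zgrp F)) (hx : x ^ 4 = 1) :
    8 ≤ ev (V F x) 1 := by
  have h1 := two_two (x * x) (by rw [← hx, pow_succ, pow_succ, pow_succ, pow_one, mul_assoc, mul_assoc, mul_assoc])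
  rw [ev_one_eq] at h1 ⊢
  have h2 : V F (x * x) - 1 = (V F x - 1) * (V F x - 1) := by
    have h3 : (2 : Module.End F (I27 → F)) = 0 := by
      have h4 : (2 : F) = 0 := CharTwo.two_eq_zero
      have h5 : (algebraMap F (Module.End F (I27 → F))) 2 = 2 := map_ofNat _ 2
      rw [← h5, h4, map_zero]
    rw [map_mul]
    have h5 : (1 : Module.End F (I27 → F)) + 1 = 0 := by rw [one_add_one_eq_two, h3]
    have h6 : V F x + V F x = 0 := by rw [← two_mul, h3, zero_mul]
    have h7 : -(1 : Module.End F (I27 → F)) = 1 := neg_eq_of_add_eq_zero_left h5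
    have h4 : (V F x - 1) * (V F x - 1) = V F x * V F x - (V F x + V F x) + 1 := by
      rw [sub_mul, mul_sub, one_mul, mul_one]
      abel
    rw [h4, h6, sub_zero, sub_eq_add_neg, h7]
  rw [h2] at h1
  have h3 := finrank_ker_sq_le (V F x - 1)
  omega

end Cfsg.Agent.H963.E6Two.Tor
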