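import Mathlib
import Cfsg.Prelude.Def_CaseTheorems
import Cfsg.Agent.H963.QdMat
import Cfsg.Agent.H963.PerfectAct
import Cfsg.Agent.H963.QdAbelian
import Cfsg.Agent.PLocal.CoprimeLift
import Cfsg.Agent.OddOrderLocal.OmegaCritical
import Cfsg.Agent.OddOrderLocal.FreeAction
import Cfsg.Agent.Mrg.Omega.Sec.Faithful
import Cfsg.Agent.ClassicalGeometry.PSL2Basic
import Cfsg.Agent.S0126

/-!
# `G / U ≅ Qd(p)`, `p > 3`, `p`-rank of `G` at most two: `U = 1`

`G` perfect, `M = O_p(G)`, `t` an involution over the central involution of `SL(2,p)`, `D = Ω₁` of a critical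
subgroup of `M`: `t` inverts `D / D'`, of order `p²`.  If `D` is abelian then `C_M(t) = 1`, so `M` is abelian
(`QdAbelian.abelian_case`); if not, `C_M(t)` is central, and the commutator subgroup of `C_G(t)` contains an
element `y` of order `p` outside `M`, which commutes with some noncentral element of `D`: the rank is three.
-/

set_option autoImplicit false

namespace Cfsg.Agent.H963.QdRank

open Subgroup Cfsg.Agent.PLocal.QdSection Cfsg.Agent.H963.QdMat
open scoped commutatorElement

universe u

/-- Three commuting elements of order `p`, independent, do not exist in `p`-rank at most two. -/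
theorem no_three {G : Type*} [Group G] [Finite G] {p : ℕ} [hp : Fact p.Prime] (hr : Cfsg.PRankLE p 2 G)
    {a b c : G} (ha : a ^ p = 1) (hb : b ^ p = 1) (hc : c ^ p = 1) (hab : a * b = b * a)
    (hac : a * c = c * a) (hbc : b * c = c * b) (ha1 : a ≠ 1) (hb1 : b ∉ zpowers a)
    (hc1 : c ∉ closure ({a, b} : Set G)) : False := by
  set A1 := zpowers a with hA1
  set A2 := closure ({a, b} : Set G) with hA2
  set A3 := closure ({a, b, c} : Set G) with hA3
  have hcomm : ∀ x ∈ A3, ∀ y ∈ A3, x * y = y * x := by
    have h1 : A3 ≤ centralizer (A3 : Set G) := by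
      rw [hA3, centralizer_closure, closure_le]
      intro x hx
      rw [SetLike.mem_coe, mem_centralizer_iff]
      intro y hy
      simp only [Set.mem_insert_iff, Set.mem_singleton_iff] at hx hy
      rcases hx with rfl | rfl | rfl <;> rcases hy with rfl | rfl | rfl <;>
        first | rfl | assumption | (symm; assumption)
    intro x hx y hy
    exact mem_centralizer_iff.1 (h1 hy) x hx
  have hexp : ∀ x ∈ A3, x ^ p = 1 := by
    intro x hx
    have hx' := hx
    rw [hA3] at hx'
    induction hx' using closure_induction with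
    | mem x h =>
      simp only [Set.mem_insert_iff, Set.mem_singleton_iff] at h
      rcases h with rfl | rfl | rfl <;> assumption
    | one => exact one_pow p
    | mul x y hx1 hy1 hx2 hy2 =>
      have h1 : Commute x y := hcomm x hx1 y hy1
      rw [h1.mul_pow, hx2 hx1, hy2 hy1, one_mul]
    | inv x hx1 hx2 => rw [inv_pow, hx2 hx1, inv_one]
  have h3 := hr A3 ⟨⟨fun x y => Subtype.ext (hcomm x x.2 y y.2)⟩⟩ hexp
  have hA3p : IsPGroup p A3 := fun x => ⟨1, Subtype.ext (by rw [pow_one]; exact hexp x x.2)⟩
  have h12 : A1 < A2 := by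
    refine lt_of_le_of_ne ?_ ?_
    · rw [hA1, zpowers_le]
      exact Subgroup.subset_closure (by simp)
    · intro h
      apply hb1
      rw [h]
      exact Subgroup.subset_closure (by simp)
  have h23 : A2 < A3 := by
    refine lt_of_le_of_ne ?_ ?_
    · rw [hA2, closure_le]
      intro x hx
      apply Subgroup.subset_closure
      simp only [Set.mem_insert_iff, Set.mem_singleton_iff] at hx ⊢
      tauto
    · intro h
      apply hc1
      rw [h]
      exact Subgroup.subset_closure (by simp)
  have h01 : ⊥ < A1 := by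
    rw [bot_lt_iff_ne_bot, hA1, Ne, zpowers_eq_bot]
    exact ha1
  have hA2p : IsPGroup p A2 := hA3p.to_le h23.le
  have hA1p : IsPGroup p A1 := hA2p.to_le h12.le
  obtain ⟨n1, hn1⟩ := IsPGroup.iff_card.1 hA1p
  obtain ⟨n2, hn2⟩ := IsPGroup.iff_card.1 hA2p
  obtain ⟨n3, hn3⟩ := IsPGroup.iff_card.1 hA3p
  have hcard : ∀ {X Y : Subgroup G}, X < Y → Nat.card X < Nat.card Y := by
    intro X Y h
    refine lt_of_le_of_ne (Subgroup.card_le_of_le h.le) ?_
    intro h'
    exact h.ne (eq_of_le_of_card_ge h.le h'.ge)
  have c1 := hcard h01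
  have c2 := hcard h12
  have c3 := hcard h23
  rw [hn1] at c1
  rw [hn1, hn2] at c2
  rw [hn2, hn3] at c3
  rw [hn3] at h3
  have e2 := (Nat.pow_lt_pow_iff_right hp.out.one_lt).1 c2
  have e3 := (Nat.pow_lt_pow_iff_right hp.out.one_lt).1 c3
  have e4 := (Nat.pow_le_pow_iff_right hp.out.one_lt).1 h3
  have e1 : n1 ≠ 0 := by
    rintro rfl
    rw [pow_zero, Subgroup.card_bot] at c1
    exact lt_irrefl _ c1
  omega

/-- an element of odd order with `x * x = 1` is trivial -/
theorem eq_one_of_sq {G : Type*} [Group G] {p : ℕ} [hp : Fact p.Prime] (hp2 : p ≠ 2) {M : Subgroup G}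
    (hM : IsPGroup p M) {x : G} (hx : x ∈ M) (h : x * x = 1) : x = 1 := by
  obtain ⟨k, hk⟩ := hM ⟨x, hx⟩
  have h1 : x ^ p ^ k = 1 := congrArg Subtype.val hk
  have h2 : orderOf x ∣ 2 := orderOf_dvd_of_pow_eq_one (by rw [pow_two]; exact h)
  have h3 : orderOf x ∣ p ^ k := orderOf_dvd_of_pow_eq_one h1
  have h4 : Nat.Coprime 2 (p ^ k) :=
    Nat.Coprime.pow_right k ((Nat.coprime_primes Nat.prime_two hp.out).2 (Ne.symm hp2))
  have h5 : orderOf x ∣ 1 := by
    rw [← h4]
    exact Nat.dvd_gcd h2 h3
  exact orderOf_eq_one_iff.1 (Nat.dvd_one.1 h5)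

/-- a nontrivial element of a `p`-group has a power of order `p` -/
theorem exists_pow_prime {G : Type*} [Group G] {p : ℕ} [hp : Fact p.Prime] {M : Subgroup G}
    (hM : IsPGroup p M) {x : G} (hx : x ∈ M) (h : x ≠ 1) : ∃ k : ℕ, (x ^ k) ^ p = 1 ∧ x ^ k ≠ 1 := by
  obtain ⟨n, hn⟩ := (IsPGroup.iff_orderOf.1 hM) ⟨x, hx⟩
  have h1 : orderOf x = p ^ n := by
    rw [← hn]
    exact (orderOf_mk x hx).symm
  have hn0 : n ≠ 0 := by
    rintro rfl
    rw [pow_zero] at h1
    exact h (orderOf_eq_one_iff.1 h1)
  obtain ⟨m, rfl⟩ := Nat.exists_eq_succ_of_ne_zero hn0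
  refine ⟨p ^ m, ?_, ?_⟩
  · rw [← pow_mul, ← pow_succ, ← h1, pow_orderOf_eq_one]
  · intro h2
    have h3 := orderOf_dvd_of_pow_eq_one h2
    rw [h1] at h3
    have h4 := (Nat.pow_dvd_pow_iff_le_right hp.out.one_lt).1 h3
    omega

/-- **The perfect case.** -/
theorem core {G : Type u} [Group G] [Finite G] {p : ℕ} [hpf : Fact p.Prime] (hp : 3 < p)
    (hperf : commutator G = ⊤)
    (M U : Subgroup G) [hMn : M.Normal] (hM : IsPGroup p M) (hUM : U ≤ M)
    (ρ : G →* S2 p) (hρ : Function.Surjective ρ) (hker : ρ.ker = M)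
    (e : M →* V p) (he : Function.Surjective e) (hek : ∀ m : M, e m = 1 ↔ (m : G) ∈ U)
    (hc : ∀ (g : G) (m : M), e (MulAut.conjNormal g m) = act (ρ g) (e m))
    (hr : Cfsg.PRankLE p 2 G) : U = ⊥ := by
  classical
  have hp2 : p ≠ 2 := by omega
  -- an involution above the central involution
  obtain ⟨t, htt, hρt⟩ : ∃ t : G, t * t = 1 ∧ ρ t = -1 := by
    obtain ⟨s, hs⟩ := hρ (-1)
    have hodd : Odd (Nat.card M) := by
      obtain ⟨k, hk⟩ := IsPGroup.iff_card.mp hM
      rw [hk]
      exact (hpf.out.odd_of_ne_two hp2).pow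
    have hs2 : s ^ 2 ∈ M := by
      rw [← hker, MonoidHom.mem_ker, map_pow, hs, neg_one_sq]
    refine ⟨s ^ Nat.card M, ?_, ?_⟩
    · rw [← pow_two, ← pow_mul, mul_comm, pow_mul]
      exact congrArg Subtype.val (pow_card_eq_one' (x := (⟨s ^ 2, hs2⟩ : M)))
    · rw [map_pow, hs, hodd.neg_one_pow]
  have hm1 : (-1 : S2 p) ≠ 1 := by
    intro h
    have h1 := congrArg Subtype.val h
    rw [Matrix.SpecialLinearGroup.coe_neg, Matrix.SpecialLinearGroup.coe_one] at h1
    have h2 := congrFun (congrFun h1 0) 0
    simp only [Matrix.neg_apply, Matrix.one_apply_eq] at h2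
    have h3 : (2 : ZMod p) = 0 := by linear_combination -h2
    have h4 : ((2 : ℕ) : ZMod p) = 0 := by exact_mod_cast h3
    rw [ZMod.natCast_eq_zero_iff] at h4
    exact hp2 ((Nat.prime_dvd_prime_iff_eq hpf.out Nat.prime_two).1 h4)
  have ht1 : t ≠ 1 := by
    rintro rfl
    rw [map_one] at hρt
    exact hm1 hρt.symm
  have htinv : t⁻¹ = t := inv_eq_of_mul_eq_one_left htt
  have htord : orderOf t = 2 := orderOf_eq_prime (by rw [pow_two]; exact htt) ht1
  have htcop : (orderOf t).Coprime p := by
    rw [htord]
    exact (Nat.coprime_primes Nat.prime_two hpf.out).2 (Ne.symm hp2)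
  -- lifting to the centralizer of `t`
  have hlift : ∀ A : S2 p, ∃ c : G, t * c = c * t ∧ ρ c = A := by
    intro A
    obtain ⟨g, rfl⟩ := hρ A
    have : Fact (Nat.Prime 2) := ⟨Nat.prime_two⟩
    have hMc : (Nat.card M).Coprime 2 := by
      obtain ⟨k, hk⟩ := IsPGroup.iff_card.mp hM
      rw [hk]
      exact Nat.Coprime.pow_left k ((Nat.coprime_primes hpf.out Nat.prime_two).2 hp2)
    have hP : IsPGroup 2 (zpowers t) := by
      apply IsPGroup.of_card (n := 1)
      rw [Nat.card_zpowers, htord, pow_one]
    obtain ⟨m, hm, hmt⟩ := PLocal.CoprimeLift.exists_commuting_lift M (zpowers t) hMc hP g (by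
      intro x hx
      obtain ⟨k, rfl⟩ := mem_zpowers_iff.1 hx
      rw [← hker, MonoidHom.mem_ker, map_mul, map_mul, map_mul, map_inv, map_inv, map_zpow, hρt]
      have hcm : Commute (-1 : S2 p) (ρ g) := by
        rw [Commute, SemiconjBy, mul_neg, mul_one, neg_mul, one_mul]
      rw [(hcm.zpow_left k).eq, mul_assoc, mul_assoc, mul_inv_cancel_left, mul_inv_cancel])
    refine ⟨m * g, hmt t (mem_zpowers t), ?_⟩
    have hm' : ρ m = 1 := by rw [← MonoidHom.mem_ker, hker]; exact hm
    rw [map_mul, hm', one_mul]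
  -- `C_M(t) ≤ U`
  have hV2 : ∀ v : V p, v = v⁻¹ → v = 1 := by
    intro v hv
    have h1 : v * v = 1 := by
      nth_rewrite 1 [hv]
      exact inv_mul_cancel v
    have h2 := V_pow v
    have h3 : orderOf v ∣ 2 := orderOf_dvd_of_pow_eq_one (by rw [pow_two]; exact h1)
    have h4 : orderOf v ∣ p := orderOf_dvd_of_pow_eq_one h2
    have h5 : Nat.Coprime 2 p := (Nat.coprime_primes Nat.prime_two hpf.out).2 (Ne.symm hp2)
    have h6 : orderOf v ∣ 1 := by
      rw [← h5]
      exact Nat.dvd_gcd h3 h4
    exact orderOf_eq_one_iff.1 (Nat.dvd_one.1 h6)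
  -- the critical subgroup
  obtain ⟨E0, hE0, hexp0, hcl0, hfaith⟩ :=
    OddOrderLocal.OmegaCritical.exists_omega_critical (R := M) hp2 hM
  have hE0' : E0.Characteristic := hE0
  set D : Subgroup G := E0.map M.subtype with hDdef
  have hDn : D.Normal := ConjAct.normal_of_characteristic_of_normal
  have hDM : D ≤ M := map_subtype_le _
  have hexp : ∀ x : D, x ^ p = 1 := by
    rintro ⟨_, y, hy, rfl⟩
    apply Subtype.ext
    have := congrArg Subtype.val (hexp0 y hy)
    exact this
  have hexpG : ∀ x ∈ D, x ^ p = 1 := fun x hx => congrArg Subtype.val (hexp ⟨x, hx⟩)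
  have hcl : ∀ x y z : D, Commute ⁅x, y⁆ z := by
    rintro ⟨_, x, hx, rfl⟩ ⟨_, y, hy, rfl⟩ ⟨_, z, hz, rfl⟩
    apply Subtype.ext
    have := congrArg Subtype.val (hcl0 x hx y hy z hz).eq
    exact this
  have hDp : IsPGroup p D := fun x => ⟨1, by rw [pow_one]; exact hexp x⟩
  have hcard := OddOrderLocal.OmegaCritical.card_abelianization_le hexp hcl
    (Omega.Sec.Faithful.prankLE_subgroup hr D)
  set ψ := Omega.Sec.Faithful.act D with hψ
  have hAexp : ∀ x : Abelianization D, x ^ p = 1 := by
    intro x
    induction x using QuotientGroup.induction_on with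
    | H x =>
      change Abelianization.of x ^ p = 1
      rw [← map_pow, hexp x, map_one]
  -- `t` inverts `D / D'`
  obtain ⟨hW2, htW⟩ : Nat.card (Abelianization D) = p ^ 2 ∧ ∀ w, ψ t w = w⁻¹ := by
    rcases PerfectAct.inv_or_one hp2 hAexp hcard hperf ψ t htt with h | h
    · exfalso
      have h1 : ψ t = 1 := MulEquiv.ext h
      have h4 := Omega.Sec.Faithful.fix_of_act_eq_one D hDp hcl htcop h1
      have h5 : (MulAut.conjNormal t : MulAut M) = 1 := by
        refine hfaith _ ?_ fun x hx => ?_
        · exact Nat.Coprime.coprime_dvd_left (orderOf_map_dvd _ _) htcop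
        · have h6 := congrArg Subtype.val (h4 ⟨(x : G), x, hx, rfl⟩)
          rw [MulAut.conjNormal_apply] at h6
          apply Subtype.ext
          rw [MulAut.conjNormal_apply]
          exact h6
      obtain ⟨m, hm⟩ := he (Multiplicative.ofAdd ![1, 0])
      have h6 := hc t m
      rw [h5, MulAut.one_apply, hρt, act_neg_one] at h6
      have h7 := hV2 _ h6
      rw [hm] at h7
      have := congrFun (congrArg Multiplicative.toAdd h7) 0
      simp at this
    · exact h
  -- the commutator subgroup of `D`
  set Dc : Subgroup G := (commutator D).map D.subtype with hDcdef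
  have hDcn : Dc.Normal := ConjAct.normal_of_characteristic_of_normal
  have hDcD : Dc ≤ D := map_subtype_le _
  have hmemDc : ∀ x : D, Abelianization.of x = 1 ↔ (x : G) ∈ Dc := by
    intro x
    rw [hDcdef]
    constructor
    · intro h
      refine ⟨x, ?_, rfl⟩
      exact (QuotientGroup.eq_one_iff x).1 h
    · rintro ⟨y, hy, hyx⟩
      have : y = x := Subtype.ext hyx
      subst this
      exact (QuotientGroup.eq_one_iff y).2 hy
  have hDccomm : ∀ x ∈ Dc, ∀ d ∈ D, x * d = d * x := by
    have hcen : commutator D ≤ center D := by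
      rw [_root_.commutator_def, commutator_le]
      intro y _ z _
      rw [mem_center_iff]
      intro w
      exact (hcl y z w).eq.symm
    rintro _ ⟨x, hx, rfl⟩ d hd
    have h1 := mem_center_iff.1 (hcen hx) ⟨d, hd⟩
    exact (congrArg Subtype.val h1).symm
  have hDne : Dc ≠ D := by
    intro h
    have h1 : ∀ w : Abelianization D, w = 1 := by
      intro w
      induction w using QuotientGroup.induction_on with
      | H x =>
        apply (hmemDc x).2
        rw [h]
        exact x.2
    have h2 : Nat.card (Abelianization D) = 1 := by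
      rw [Nat.card_eq_one_iff_unique]
      exact ⟨⟨fun a b => by rw [h1 a, h1 b]⟩, ⟨1⟩⟩
    rw [h2] at hW2
    have h3 : 1 < p ^ 2 := Nat.one_lt_pow (by norm_num) hpf.out.one_lt
    omega
  -- `D'` is cyclic, hence central in `G`
  have hDcyc : ∃ a ∈ Dc, Dc = zpowers a := by
    by_cases hbot : Dc = ⊥
    · exact ⟨1, by rw [hbot]; exact mem_bot.2 rfl, by rw [hbot, zpowers_one_eq_bot]⟩
    · obtain ⟨⟨a, ha⟩, ha1⟩ := Subgroup.ne_bot_iff_exists_ne_one.1 hbot
      have ha1' : (a : G) ≠ 1 := fun h => ha1 (Subtype.ext h)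
      refine ⟨a, ha, le_antisymm ?_ (by rw [zpowers_le]; exact ha)⟩
      intro b hb
      by_contra hba
      obtain ⟨v, hv, hvD⟩ : ∃ v ∈ D, v ∉ Dc := by
        by_contra hcon
        push Not at hcon
        exact hDne (le_antisymm hDcD hcon)
      refine no_three hr (hexpG _ (hDcD ha)) (hexpG _ (hDcD hb)) (hexpG _ hv)
        (hDccomm _ ha _ (hDcD hb)) (hDccomm _ ha _ hv) (hDccomm _ hb _ hv) ha1' hba ?_
      intro h
      apply hvD
      have h1 : closure ({(a : G), b} : Set G) ≤ Dc := by
        rw [closure_le]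
        intro x hx
        simp only [Set.mem_insert_iff, Set.mem_singleton_iff] at hx
        rcases hx with rfl | rfl
        · exact ha
        · exact hb
      exact h1 h
  obtain ⟨a, haDc, hDca⟩ := hDcyc
  have hDcZ : Dc ≤ center G := by
    have h1 : IsCyclic Dc := by rw [hDca]; infer_instance
    exact PerfectAct.le_center_of_cyclic hperf Dc
  have hDcZ' : ∀ x ∈ Dc, ∀ g : G, g * x = x * g := fun x hx g => mem_center_iff.1 (hDcZ hx) g
  -- the action modulo `D'`
  have hact : ∀ (g : G) (d : G) (hd : d ∈ D),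
      ψ g (Abelianization.of ⟨d, hd⟩) = Abelianization.of ⟨g * d * g⁻¹, hDn.conj_mem d hd g⟩ := by
    intro g d hd
    rw [hψ, Omega.Sec.Faithful.act_of]
    congr 1
  have htd : ∀ d ∈ D, ∃ z ∈ Dc, t * d * t⁻¹ = z * d⁻¹ := by
    intro d hd
    have h1 := hact t d hd
    rw [htW, ← map_inv] at h1
    have h2 : Abelianization.of (⟨t * d * t⁻¹, hDn.conj_mem d hd t⟩ * ⟨d, hd⟩ : D) = 1 := by
      rw [map_mul, ← h1, ← map_mul, inv_mul_cancel, map_one]
    refine ⟨t * d * t⁻¹ * d, (hmemDc _).1 h2, ?_⟩
    group
  -- an element centralising `t` and stabilising an element modulo `D'` centralises it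
  have hstab : ∀ g : G, t * g = g * t → ∀ d ∈ D, g * d * g⁻¹ * d⁻¹ ∈ Dc → g * d = d * g := by
    intro g hg d hd hgd
    obtain ⟨z, hz, hzd⟩ := htd d hd
    set x := g * d * g⁻¹ * d⁻¹ with hx
    have hgd' : g * d * g⁻¹ = x * d := by rw [hx]; group
    have h1 : t * (g * d * g⁻¹) * t⁻¹ = g * (t * d * t⁻¹) * g⁻¹ := by
      have h2 : t * g = g * t := hg
      have h3 : g⁻¹ * t⁻¹ = t⁻¹ * g⁻¹ := by rw [← mul_inv_rev, ← mul_inv_rev, hg]
      calc t * (g * d * g⁻¹) * t⁻¹ = (t * g) * d * (g⁻¹ * t⁻¹) := by group
        _ = (g * t) * d * (t⁻¹ * g⁻¹) := by rw [h2, h3]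
        _ = _ := by group
    have h2 : t * (g * d * g⁻¹) * t⁻¹ = x * z * d⁻¹ := by
      rw [hgd']
      calc t * (x * d) * t⁻¹ = (t * x) * d * t⁻¹ := by group
        _ = (x * t) * d * t⁻¹ := by rw [hDcZ' x hgd t]
        _ = x * (t * d * t⁻¹) := by group
        _ = _ := by rw [hzd]; group
    have h3 : g * (t * d * t⁻¹) * g⁻¹ = z * x⁻¹ * d⁻¹ := by
      rw [hzd]
      calc g * (z * d⁻¹) * g⁻¹ = (g * z) * d⁻¹ * g⁻¹ := by group
        _ = (z * g) * d⁻¹ * g⁻¹ := by rw [hDcZ' z hz g]
        _ = z * (g * d * g⁻¹)⁻¹ := by group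
        _ = z * (x * d)⁻¹ := by rw [hgd']
        _ = z * (d⁻¹ * x⁻¹) := by rw [mul_inv_rev]
        _ = _ := by rw [hDcZ' _ (Dc.inv_mem hgd) d⁻¹]; group
    have h4 : x * z * d⁻¹ = z * x⁻¹ * d⁻¹ := by rw [← h2, h1, h3]
    have h5 : x * z = z * x⁻¹ := mul_right_cancel h4
    have h6 : x * x = 1 := by
      have h7 : x * z = x⁻¹ * z := by rw [h5, ← hDcZ' z hz x⁻¹]
      have h8 : x = x⁻¹ := mul_right_cancel h7
      nth_rewrite 2 [h8]
      exact mul_inv_cancel x
    have h7 : x = 1 := eq_one_of_sq hp2 hDp (hDcD hgd) h6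
    rw [h7, one_mul] at hgd'
    exact mul_inv_eq_iff_eq_mul.1 hgd'
  -- `M` acts trivially on `D / D'`
  have hMW : ∀ m ∈ M, ∀ w, ψ m w = w := by
    let F : Subgroup (Abelianization D) :=
      { carrier := {w | ∀ m ∈ M, ψ m w = w}
        one_mem' := fun m _ => map_one _
        mul_mem' := fun {a b} ha hb m hm => by rw [map_mul, ha m hm, hb m hm]
        inv_mem' := fun {a} ha m hm => by rw [map_inv, ha m hm] }
    have hFinv : ∀ g : G, ∀ w ∈ F, ψ g w ∈ F := by
      intro g w hw m hm
      have h1 := hw (g⁻¹ * m * g) (by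
        have := hMn.conj_mem m hm g⁻¹
        rwa [inv_inv] at this)
      rw [← MulAut.mul_apply, ← map_mul]
      have h2 : m * g = g * (g⁻¹ * m * g) := by group
      rw [h2, map_mul, MulAut.mul_apply, h1]
    have hFne : F ≠ ⊥ := by
      let _ : MulAction M (Abelianization D) := MulAction.compHom _ (ψ.comp M.subtype)
      have h1 : p ∣ Nat.card (Abelianization D) := by rw [hW2]; exact dvd_pow_self p (by norm_num)
      have h2 : (1 : Abelianization D) ∈ MulAction.fixedPoints M (Abelianization D) :=
        fun m => map_one (ψ m)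
      obtain ⟨w, hw, hw1⟩ := hM.exists_fixed_point_of_prime_dvd_card_of_fixed_point (Abelianization D) h1 h2
      intro h
      have h3 : w ∈ F := fun m hm => hw ⟨m, hm⟩
      rw [h, mem_bot] at h3
      exact hw1 h3.symm
    have hFtop : F = ⊤ := by
      by_contra hne
      have h1 : Nat.card F ∣ p ^ 2 := by rw [← hW2]; exact F.card_subgroup_dvd_card
      obtain ⟨i, hi, hFi⟩ := (Nat.dvd_prime_pow hpf.out).1 h1
      have hi0 : i ≠ 0 := by
        rintro rfl
        rw [pow_zero] at hFi
        exact hFne (Subgroup.card_eq_one.1 hFi)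
      have hi2 : i ≠ 2 := by
        rintro rfl
        exact hne (Subgroup.eq_top_of_card_eq _ (by rw [hFi, hW2]))
      have hi1 : i = 1 := by omega
      rw [hi1, pow_one] at hFi
      have hcyc : IsCyclic F := isCyclic_of_prime_card hFi
      -- the restriction
      let r : G →* MulAut F :=
        { toFun := fun g =>
            { toFun := fun w => ⟨ψ g w, hFinv g w w.2⟩
              invFun := fun w => ⟨ψ g⁻¹ w, hFinv g⁻¹ w w.2⟩
              left_inv := fun w => Subtype.ext (by
                change ψ g⁻¹ (ψ g w) = w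
                rw [← MulAut.mul_apply, ← map_mul, inv_mul_cancel, map_one, MulAut.one_apply])
              right_inv := fun w => Subtype.ext (by
                change ψ g (ψ g⁻¹ w) = w
                rw [← MulAut.mul_apply, ← map_mul, mul_inv_cancel, map_one, MulAut.one_apply])
              map_mul' := fun w w' => Subtype.ext (map_mul (ψ g) _ _) }
          map_one' := by
            apply MulEquiv.ext
            intro w
            apply Subtype.ext
            change ψ 1 (w : Abelianization D) = w
            rw [map_one, MulAut.one_apply]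
          map_mul' := fun g h => by
            apply MulEquiv.ext
            intro w
            apply Subtype.ext
            change ψ (g * h) (w : Abelianization D) = ψ g (ψ h w)
            rw [map_mul, MulAut.mul_apply] }
      have hcomm : ∀ f g : MulAut F, f * g = g * f := by
        intro f g
        obtain ⟨a, ha⟩ := IsCyclic.exists_generator (α := F)
        obtain ⟨i, hi⟩ := Subgroup.mem_zpowers_iff.1 (ha (f a))
        obtain ⟨j, hj⟩ := Subgroup.mem_zpowers_iff.1 (ha (g a))
        have h1 : f (g a) = g (f a) := by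
          rw [← hj, ← hi, map_zpow, map_zpow, ← hi, ← hj, ← zpow_mul, ← zpow_mul, mul_comm]
        apply MulEquiv.ext
        intro x
        obtain ⟨k, rfl⟩ := Subgroup.mem_zpowers_iff.1 (ha x)
        rw [MulAut.mul_apply, MulAut.mul_apply, map_zpow g, map_zpow f, map_zpow f, map_zpow g, h1]
      let _ : CommGroup (MulAut F) := { (inferInstance : Group (MulAut F)) with mul_comm := hcomm }
      have hrt : r t = 1 := PerfectAct.eq_one_of_perfect hperf r t
      apply hFne
      rw [eq_bot_iff]
      intro w hw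
      rw [mem_bot]
      have h2 := congrArg (fun φ : MulAut F => ((φ ⟨w, hw⟩ : F) : Abelianization D)) hrt
      have h3 : ψ t w = w := h2
      rw [htW] at h3
      have h4 : w * w = 1 := by
        nth_rewrite 1 [← h3]
        exact inv_mul_cancel w
      have hAp : IsPGroup p (⊤ : Subgroup (Abelianization D)) :=
        fun x => ⟨1, Subtype.ext (by rw [pow_one]; exact hAexp x)⟩
      exact eq_one_of_sq hp2 hAp (mem_top w) h4
    intro m hm w
    have h1 : w ∈ F := by rw [hFtop]; trivial
    exact h1 m hm
  have hCMD : ∀ m ∈ M, t * m = m * t → ∀ d ∈ D, m * d = d * m := by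
    intro m hm htm d hd
    apply hstab m htm d hd
    have h1 := hact m d hd
    rw [hMW m hm] at h1
    have h2 : Abelianization.of (⟨m * d * m⁻¹, hDn.conj_mem d hd m⟩ * (⟨d, hd⟩ : D)⁻¹ : D) = 1 := by
      rw [map_mul, ← h1, map_inv, mul_inv_cancel]
    exact (hmemDc _).1 h2
  by_cases hDc1 : Dc = ⊥
  · -- `D` is abelian
    have hDab : ∀ x ∈ D, ∀ y ∈ D, x * y = y * x := by
      intro x hx y hy
      have h1 : ⁅(⟨x, hx⟩ : D), (⟨y, hy⟩ : D)⁆ ∈ commutator D :=
        commutator_mem_commutator (mem_top _) (mem_top _)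
      have h2 : (⁅(⟨x, hx⟩ : D), (⟨y, hy⟩ : D)⁆ : D).1 ∈ Dc := ⟨_, h1, rfl⟩
      rw [hDc1, mem_bot] at h2
      have h3 : ⁅x, y⁆ = 1 := h2
      exact commutatorElement_eq_one_iff_mul_comm.1 h3
    have htD : ∀ d ∈ D, t * d * t⁻¹ = d⁻¹ := by
      intro d hd
      obtain ⟨z, hz, hzd⟩ := htd d hd
      rw [hDc1, mem_bot] at hz
      rw [hzd, hz, one_mul]
    have hCM1 : ∀ m ∈ M, t * m = m * t → m = 1 := by
      intro m hm htm
      by_contra hne
      obtain ⟨k, hk1, hk2⟩ := exists_pow_prime hM hm hne
      set z := m ^ k with hz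
      have hzM : z ∈ M := M.pow_mem hm k
      have htz : t * z = z * t := ((show Commute t m from htm).pow_right k).eq
      have hzD : z ∉ D := by
        intro h
        have h1 := htD z h
        rw [htz, mul_inv_cancel_right] at h1
        apply hk2
        apply eq_one_of_sq hp2 hM hzM
        nth_rewrite 1 [h1]
        exact inv_mul_cancel z
      have hzc := hCMD z hzM htz
      -- generators of `D`
      have hDne1 : D ≠ ⊥ := by
        intro h
        apply hDne
        rw [hDc1, h]
      obtain ⟨a', ha', ha1⟩ : ∃ a' ∈ D, a' ≠ 1 := by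
        by_contra hcon
        push Not at hcon
        exact hDne1 (eq_bot_iff.2 fun x hx => mem_bot.2 (hcon x hx))
      obtain ⟨b', hb', hb1⟩ : ∃ b' ∈ D, b' ∉ zpowers a' := by
        by_contra hcon
        push Not at hcon
        have h1 : D = zpowers a' := le_antisymm hcon (by rw [zpowers_le]; exact ha')
        have h2 : Nat.card D ≤ p := by
          rw [h1, Nat.card_zpowers]
          exact Nat.le_of_dvd hpf.out.pos (orderOf_dvd_of_pow_eq_one (hexpG a' ha'))
        have h3 : Nat.card (Abelianization D) ≤ Nat.card D :=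
          Nat.card_le_card_of_surjective (Abelianization.of (G := D)) QuotientGroup.mk_surjective
        rw [hW2] at h3
        have h4 : p ^ 2 ≤ p := h3.trans h2
        have h5 : p * p ≤ p := by rwa [pow_two] at h4
        have := hpf.out.two_le
        nlinarith
      refine no_three hr (hexpG _ ha') (hexpG _ hb') hk1 (hDab _ ha' _ hb') (hzc _ ha').symm (hzc _ hb').symm
        ha1 hb1 ?_
      intro h
      apply hzD
      have h1 : closure ({a', b'} : Set G) ≤ D := by
        rw [closure_le]
        intro x hx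
        simp only [Set.mem_insert_iff, Set.mem_singleton_iff] at hx
        rcases hx with rfl | rfl
        · exact ha'
        · exact hb'
      exact h1 h
    -- `t` inverts `M`
    have htM : ∀ m ∈ M, t * m * t⁻¹ = m⁻¹ := by
      let τ : M →* M := (MulAut.conjNormal (H := M) t).toMonoidHom
      have hfp : MonoidHom.FixedPointFree τ := by
        intro m hm
        apply Subtype.ext
        apply hCM1 m m.2
        have h1 : t * (m : G) * t⁻¹ = m := congrArg Subtype.val hm
        exact mul_inv_eq_iff_eq_mul.1 h1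
      have hinv : Function.Involutive τ := by
        intro m
        apply Subtype.ext
        change t * (t * (m : G) * t⁻¹) * t⁻¹ = m
        calc t * (t * (m : G) * t⁻¹) * t⁻¹ = (t * t) * m * (t * t)⁻¹ := by group
          _ = m := by rw [htt]; group
      intro m hm
      have h1 := hfp.coe_eq_inv_of_involutive hinv
      have h2 := congrFun h1 ⟨m, hm⟩
      exact congrArg Subtype.val h2
    have hMab : ∀ x ∈ M, ∀ y ∈ M, x * y = y * x := by
      intro x hx y hy
      have h1 := htM (x * y) (M.mul_mem hx hy)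
      have h2 : t * (x * y) * t⁻¹ = (t * x * t⁻¹) * (t * y * t⁻¹) := by group
      rw [h2, htM x hx, htM y hy, ← mul_inv_rev] at h1
      exact (inv_injective h1).symm
    obtain ⟨y, hty, hy⟩ := hlift (ua p)
    have hyp : y ^ p = 1 := by
      apply hCM1
      · rw [← hker, MonoidHom.mem_ker, map_pow, hy, ua_pow_p]
      · exact ((show Commute t y from hty).pow_right p).eq
    exact QdAbelian.abelian_case hp M U hM hUM ρ hρ e he hek hc hMab hr y hy hyp
  · -- `D` is not abelian: contradiction
    exfalso
    have ha1 : a ≠ 1 := by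
      rintro rfl
      apply hDc1
      rw [hDca, zpowers_one_eq_bot]
    have hap : a ^ p = 1 := hexpG a (hDcD haDc)
    -- noncommuting elements of `D`
    obtain ⟨v, hv, w, hw, hvw⟩ : ∃ v ∈ D, ∃ w ∈ D, v * w ≠ w * v := by
      by_contra hcon
      push Not at hcon
      apply hDc1
      rw [hDcdef, Subgroup.map_eq_bot_iff_of_injective _ D.subtype_injective, eq_bot_iff, _root_.commutator_def,
        commutator_le]
      intro x _ y _
      rw [mem_bot, commutatorElement_eq_one_iff_mul_comm]
      exact Subtype.ext (hcon x x.2 y y.2)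
    -- the centralizer of `D` in `M` is cyclic
    set E : Subgroup G := M ⊓ centralizer (D : Set G) with hE
    have hEn : E.Normal := by
      have : (centralizer (D : Set G)).Normal := Subgroup.normal_centralizer
      rw [hE]
      infer_instance
    have hEp : IsPGroup p E := hM.to_le inf_le_left
    have hEord : ∀ x ∈ E, x ^ p = 1 → x ∈ Dc := by
      intro x hx hxp
      by_contra hxD
      rw [hDca] at hxD
      have hxc : ∀ d ∈ D, d * x = x * d := fun d hd => mem_centralizer_iff.1 hx.2 d hd
      refine no_three hr hap hxp (hexpG v hv) (hxc a (hDcD haDc)) (hDccomm a haDc v hv) (hxc v hv).symm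
        ha1 hxD ?_
      intro h
      apply hvw
      have h1 : closure ({a, x} : Set G) ≤ centralizer (D : Set G) := by
        rw [closure_le]
        intro y hy
        simp only [Set.mem_insert_iff, Set.mem_singleton_iff] at hy
        rcases hy with rfl | rfl
        · rw [SetLike.mem_coe, mem_centralizer_iff]
          intro d hd
          exact (hDccomm _ haDc d hd).symm
        · exact hx.2
      exact (mem_centralizer_iff.1 (h1 h) w hw).symm
    have hEcyc : IsCyclic E := by
      by_contra hnc
      obtain ⟨A, -, hA, hAcard⟩ := Cfsg.Agent.S0126.result hp2 hEp hnc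
      have h1 : A.map E.subtype ≤ Dc := by
        rintro _ ⟨x, hx, rfl⟩
        apply hEord _ x.2
        have := congrArg Subtype.val (hA.2 x hx)
        exact this
      have h2 := Subgroup.card_le_of_le h1
      rw [Subgroup.card_map_of_injective E.subtype_injective, hAcard, hDca, Nat.card_zpowers] at h2
      have h3 : orderOf a ≤ p := Nat.le_of_dvd hpf.out.pos (orderOf_dvd_of_pow_eq_one hap)
      have h4 : p * p ≤ p := by
        rw [← pow_two]
        exact h2.trans h3
      have := hpf.out.two_le
      nlinarith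
    have hEZ : E ≤ center G := PerfectAct.le_center_of_cyclic hperf E
    have hCMZ : ∀ m ∈ M, t * m = m * t → m ∈ center G := by
      intro m hm htm
      apply hEZ
      exact ⟨hm, mem_centralizer_iff.2 fun d hd => (hCMD m hm htm d hd).symm⟩
    -- the centralizer of `t`
    set C : Subgroup G := centralizer {t} with hC
    have hCmem : ∀ g : G, g ∈ C ↔ t * g = g * t := by
      intro g
      rw [hC, mem_centralizer_iff]
      simp
    let ρC : C →* S2 p := ρ.comp C.subtype
    have hρC : Function.Surjective ρC := by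
      intro A
      obtain ⟨c, hc1, hc2⟩ := hlift A
      exact ⟨⟨c, (hCmem c).2 hc1⟩, hc2⟩
    have hkerC : ∀ c : C, ρC c = 1 → c ∈ center C := by
      intro c hc1
      have h1 : (c : G) ∈ M := by rw [← hker]; exact hc1
      have h2 := hCMZ c h1 ((hCmem c).1 c.2)
      rw [mem_center_iff]
      intro d
      exact Subtype.ext (mem_center_iff.1 h2 d)
    obtain ⟨y, hyC, hyρ⟩ : ∃ y ∈ commutator C, ρC y = ua p := by
      have h1 : (commutator C).map ρC = ⊤ := by
        rw [_root_.commutator_def, Subgroup.map_commutator, Subgroup.map_top_of_surjective _ hρC, ← _root_.commutator_def]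
        exact PLocal.SL2Perfect.commutator_eq_top (by omega) (by omega)
      have h2 : ua p ∈ (commutator C).map ρC := by rw [h1]; trivial
      obtain ⟨y, hy, hyρ⟩ := h2
      exact ⟨y, hy, hyρ⟩
    -- Sylow subgroups of `C` are abelian
    have hSyl : ∀ P : Sylow p C, IsMulCommutative (P : Subgroup C) := by
      intro P
      let f : (P : Subgroup C) →* S2 p := ρC.comp (P : Subgroup C).subtype
      have hfr : IsPGroup p f.range := P.isPGroup'.of_surjective f.rangeRestrict f.rangeRestrict_surjective
      have hcardSL : Nat.card (S2 p) = p * (p ^ 2 - 1) := by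
        have := ClassicalGeometry.PSL2Basic.card_SL2 (F := ZMod p)
        rwa [ZMod.card] at this
      have hrc : IsCyclic f.range := by
        obtain ⟨n, hn⟩ := IsPGroup.iff_card.1 hfr
        have h1 : p ^ n ∣ p * (p ^ 2 - 1) := by
          rw [← hn, ← hcardSL]
          exact f.range.card_subgroup_dvd_card
        have h2 : n ≤ 1 := by
          by_contra hcon
          have h3 : p ^ 2 ∣ p * (p ^ 2 - 1) := (pow_dvd_pow p (by omega)).trans h1
          rw [pow_two, ← pow_two] at h3
          have h4 : p ∣ p ^ 2 - 1 := by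
            rw [pow_two] at h3
            have := Nat.dvd_of_mul_dvd_mul_left hpf.out.pos h3
            rwa [← pow_two] at this
          have h5 : p ∣ p ^ 2 := dvd_pow_self p (by norm_num)
          have h6 : p ∣ 1 := by
            have h7 := Nat.dvd_sub h5 h4
            have h8 : 1 ≤ p ^ 2 := Nat.one_le_pow _ _ hpf.out.pos
            have h9 : p ^ 2 - (p ^ 2 - 1) = 1 := by omega
            rwa [h9] at h7
          exact hpf.out.one_lt.ne' (Nat.dvd_one.1 h6)
        interval_cases n
        · have : Subsingleton f.range := (Nat.card_eq_one_iff_unique.1 (by rw [hn, pow_zero])).1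
          exact isCyclic_of_subsingleton
        · exact isCyclic_of_prime_card (p := p) (by rw [hn, pow_one])
      have hfk : f.rangeRestrict.ker ≤ center (P : Subgroup C) := by
        intro x hx
        rw [MonoidHom.ker_rangeRestrict, MonoidHom.mem_ker] at hx
        have h1 := hkerC x.1 hx
        rw [mem_center_iff] at h1 ⊢
        intro z
        exact Subtype.ext (h1 z)
      exact MonoidHom.isMulCommutative_of_isCyclic_of_ker_le_center f.rangeRestrict hfk
    have hyp : y ^ p = 1 := by
      obtain ⟨P⟩ : Nonempty (Sylow p C) := inferInstance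
      have h1 : ρC (y ^ p) = 1 := by rw [map_pow, hyρ, ua_pow_p]
      have h2 := hkerC _ h1
      have h3 : ((y ^ p : C) : G) ∈ M := by rw [← hker]; exact h1
      have h4 : IsPGroup p (zpowers (y ^ p)) := by
        obtain ⟨n, hn⟩ := IsPGroup.iff_orderOf.1 hM ⟨_, h3⟩
        apply IsPGroup.of_card (n := n)
        have h5 : orderOf (⟨((y ^ p : C) : G), h3⟩ : M) = orderOf (y ^ p) := by
          rw [← Subgroup.orderOf_coe, ← Subgroup.orderOf_coe (y ^ p)]
        rw [Nat.card_zpowers, ← hn, h5]
      have h5 : (zpowers (y ^ p)).Normal := by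
        refine ⟨fun x hx g => ?_⟩
        have hxc : x ∈ center C := (zpowers_le.2 h2 : zpowers (y ^ p) ≤ center C) hx
        rw [mem_center_iff.1 hxc g, mul_inv_cancel_right]
        exact hx
      have h6 : zpowers (y ^ p) ≤ (P : Subgroup C) := by
        have h7 : IsPGroup p (zpowers (y ^ p) ⊔ (P : Subgroup C) : Subgroup C) :=
          h4.to_sup_of_normal_left P.isPGroup'
        rw [← P.3 h7 le_sup_right]
        exact le_sup_left
      exact OddOrderLocal.FreeAction.eq_one_of_mem_sylow_center_commutator P (hSyl P)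
        (h6 (mem_zpowers _)) h2 ((commutator C).pow_mem hyC p)
    have hypG : (y : G) ^ p = 1 := congrArg Subtype.val hyp
    have hty : t * (y : G) = y * t := (hCmem y).1 y.2
    have hyM : (y : G) ∉ M := by
      intro h
      rw [← hker] at h
      have h1 : ρC y = 1 := h
      rw [hyρ] at h1
      exact ua_ne_one p h1
    -- a fixed point of `y` on `D / D'`
    obtain ⟨u, huD, huDc, huy⟩ : ∃ u ∈ D, u ∉ Dc ∧ (y : G) * u = u * y := by
      have hYp : IsPGroup p (zpowers (y : G)) := by
        have h1 : orderOf (y : G) ∣ p := orderOf_dvd_of_pow_eq_one hypG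
        rcases (Nat.dvd_prime hpf.out).1 h1 with h | h
        · exact IsPGroup.of_card (n := 0) (by rw [Nat.card_zpowers, h, pow_zero])
        · exact IsPGroup.of_card (n := 1) (by rw [Nat.card_zpowers, h, pow_one])
      let _ : MulAction (zpowers (y : G)) (Abelianization D) :=
        MulAction.compHom _ (ψ.comp (zpowers (y : G)).subtype)
      have h1 : p ∣ Nat.card (Abelianization D) := by rw [hW2]; exact dvd_pow_self p (by norm_num)
      have h2 : (1 : Abelianization D) ∈ MulAction.fixedPoints (zpowers (y : G)) (Abelianization D) :=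
        fun m => map_one (ψ m)
      obtain ⟨w, hw, hw1⟩ := hYp.exists_fixed_point_of_prime_dvd_card_of_fixed_point (Abelianization D) h1 h2
      have h3 : ψ (y : G) w = w := hw ⟨y, mem_zpowers _⟩
      obtain ⟨⟨u, hu⟩, rfl⟩ := QuotientGroup.mk_surjective w
      refine ⟨u, hu, ?_, ?_⟩
      · intro h
        exact hw1 ((hmemDc ⟨u, hu⟩).2 h).symm
      · apply hstab y hty u hu
        have h4 := hact y u hu
        have h5 : ψ (y : G) (Abelianization.of ⟨u, hu⟩) = Abelianization.of ⟨u, hu⟩ := h3
        rw [h5] at h4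
        have h6 : Abelianization.of (⟨y * u * (y : G)⁻¹, hDn.conj_mem u hu y⟩ * (⟨u, hu⟩ : D)⁻¹ : D) = 1 := by
          rw [map_mul, ← h4, map_inv, mul_inv_cancel]
        exact (hmemDc _).1 h6
    refine no_three hr hap (hexpG u huD) hypG (hDccomm a haDc u huD) (hDcZ' a haDc y).symm huy.symm
      ha1 (by rw [← hDca]; exact huDc) ?_
    intro h
    apply hyM
    have h1 : closure ({a, u} : Set G) ≤ M := by
      rw [closure_le]
      intro x hx
      simp only [Set.mem_insert_iff, Set.mem_singleton_iff] at hx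
      rcases hx with rfl | rfl
      · exact hDM (hDcD haDc)
      · exact hDM huD
    exact h1 h

end Cfsg.Agent.H963.QdRank
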