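import Mathlib
import Cfsg.Prelude.Def_CaseTheorems
import Cfsg.Agent.H963.QdRank
import Cfsg.Agent.KantorSeitz.Defs

/-!
# `Qd(p)`, `p > 3`, as a section of a group of `p`-rank at most two

`ker_eq_bot`: a homomorphism of a finite group of `p`-rank at most two onto `Qd(p)` whose kernel is a `p`-group
is injective.  `exists_subgroup`: a finite group of `p`-rank at most two which involves `Qd(p)` has a
subgroup `H` and a homomorphism of `H` onto `Qd(p)` with kernel of order prime to `p`.
-/

set_option autoImplicit false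

namespace Cfsg.Agent.H963.QdMain

open Subgroup Cfsg.Agent.PLocal.QdSection Cfsg.Agent.H963.QdMat
open scoped commutatorElement

universe u

/-- the perfect case -/
theorem ker_eq_bot_perfect {G : Type u} [Group G] [Finite G] {p : ℕ} [Fact p.Prime] (hp : 3 < p)
    (hperf : commutator G = ⊤) (π : G →* ↥(Cfsg.qd p)) (hπ : Function.Surjective π)
    (hU : IsPGroup p π.ker) (hr : Cfsg.PRankLE p 2 G) : π.ker = ⊥ := by
  set ρ : G →* S2 p := blk.comp π with hρ
  have hρs : Function.Surjective ρ := blk_surjective.comp hπ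
  let θ : V p ≃* (tr (p := p)).range := MonoidHom.ofInjective tr_injective
  have hmem : ∀ m : ρ.ker, (π.comp ρ.ker.subtype) m ∈ (tr (p := p)).range := fun m => by
    rw [← blk_ker]; exact m.2
  let πM : ρ.ker →* (tr (p := p)).range := (π.comp ρ.ker.subtype).codRestrict _ hmem
  let e : ρ.ker →* V p := θ.symm.toMonoidHom.comp πM
  have he : ∀ m : ρ.ker, tr (e m) = π m := by
    intro m
    have h1 : θ (θ.symm (πM m)) = πM m := θ.apply_symm_apply _
    exact congrArg Subtype.val h1
  have hek : ∀ m : ρ.ker, e m = 1 ↔ (m : G) ∈ π.ker := by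
    intro m
    rw [MonoidHom.mem_ker, ← he m]
    constructor
    · intro h
      rw [h, map_one]
    · intro h
      exact tr_injective (by rw [h, map_one])
  have hM : IsPGroup p ρ.ker := by
    intro m
    have h1 : e (m ^ p) = 1 := by rw [map_pow, V_pow]
    obtain ⟨k, hk⟩ := hU ⟨_, (hek _).1 h1⟩
    refine ⟨k + 1, ?_⟩
    rw [pow_succ', pow_mul]
    have h2 : ((m ^ p : ρ.ker) : G) ^ p ^ k = 1 := congrArg Subtype.val hk
    exact Subtype.ext h2
  refine QdRank.core hp hperf ρ.ker π.ker hM ?_ ρ hρs rfl e ?_ hek ?_ hr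
  · intro x hx
    rw [MonoidHom.mem_ker] at hx ⊢
    rw [hρ, MonoidHom.comp_apply, hx, map_one]
  · intro v
    obtain ⟨g, hg⟩ := hπ (tr v)
    have h1 : g ∈ ρ.ker := by
      have h2 : tr v ∈ (blk (p := p)).ker := by rw [blk_ker]; exact ⟨v, rfl⟩
      rw [MonoidHom.mem_ker, hρ, MonoidHom.comp_apply, hg]
      exact h2
    exact ⟨⟨g, h1⟩, tr_injective (by rw [he]; exact hg)⟩
  · intro g m
    apply tr_injective
    have h1 : tr (act (ρ g) (e m)) = π g * π m * (π g)⁻¹ := by
      rw [← he m, conj_tr]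
      rfl
    rw [he, h1, MulAut.conjNormal_apply, map_mul, map_mul, map_inv]

/-- the translations, pulled back: three commuting elements of order `p` -/
theorem no_central {G : Type u} [Group G] [Finite G] {p : ℕ} [hpf : Fact p.Prime]
    (π : G →* ↥(Cfsg.qd p)) (H : Subgroup G) (hH : Function.Surjective (π.comp H.subtype))
    (hinj : (π.comp H.subtype).ker = ⊥) (hr : Cfsg.PRankLE p 2 G) {a : G} (hap : a ^ p = 1) (ha : π a = 1)
    (hcomm : ∀ h ∈ H, a * h = h * a) : a = 1 := by
  by_contra ha1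
  have hinj' : ∀ x ∈ H, π x = 1 → x = 1 := by
    intro x hx h
    have h1 : (⟨x, hx⟩ : H) ∈ (π.comp H.subtype).ker := h
    rw [hinj, mem_bot] at h1
    exact congrArg Subtype.val h1
  obtain ⟨⟨b, hbH⟩, hb⟩ := hH (tr (Multiplicative.ofAdd ![1, 0]))
  obtain ⟨⟨c, hcH⟩, hc⟩ := hH (tr (Multiplicative.ofAdd ![0, 1]))
  have hb' : π b = tr (Multiplicative.ofAdd ![1, 0]) := hb
  have hc' : π c = tr (Multiplicative.ofAdd ![0, 1]) := hc
  have hbp : b ^ p = 1 := hinj' _ (H.pow_mem hbH p) (by rw [map_pow, hb', ← map_pow, V_pow, map_one])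
  have hcp : c ^ p = 1 := hinj' _ (H.pow_mem hcH p) (by rw [map_pow, hc', ← map_pow, V_pow, map_one])
  have hbc : b * c = c * b := by
    have h1 : b * c * (c * b)⁻¹ = 1 := by
      apply hinj' _ (H.mul_mem (H.mul_mem hbH hcH) (H.inv_mem (H.mul_mem hcH hbH)))
      rw [map_mul, map_inv, map_mul, map_mul, hb', hc', mul_inv_eq_one, ← tr.map_mul, ← tr.map_mul]
      exact congrArg tr (mul_comm _ _)
    exact mul_inv_eq_one.1 h1
  have h10 : (1 : ZMod p) ≠ 0 := one_ne_zero
  refine QdRank.no_three hr hap hbp hcp (hcomm b hbH) (hcomm c hcH) hbc ha1 ?_ ?_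
  · intro h
    have h1 : π b = 1 := by
      have h2 : zpowers a ≤ π.ker := by rw [zpowers_le]; exact ha
      exact h2 h
    rw [hb'] at h1
    have h2 := tr_injective (h1.trans (map_one tr).symm)
    have h3 := congrArg (fun v : V p => Multiplicative.toAdd v 0) h2
    exact h10 h3
  · intro h
    have h1 : π c ∈ zpowers (tr (Multiplicative.ofAdd ![1, 0]) : ↥(Cfsg.qd p)) := by
      have h2 : closure ({a, b} : Set G) ≤ (zpowers (tr (Multiplicative.ofAdd ![1, 0]) : ↥(Cfsg.qd p))).comap π := by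
        rw [closure_le]
        intro x hx
        simp only [Set.mem_insert_iff, Set.mem_singleton_iff] at hx
        rcases hx with rfl | rfl
        · rw [SetLike.mem_coe, mem_comap, ha]
          exact one_mem _
        · rw [SetLike.mem_coe, mem_comap, hb']
          exact mem_zpowers _
      exact h2 h
    obtain ⟨k, hk⟩ := mem_zpowers_iff.1 h1
    rw [hc', ← map_zpow] at hk
    have h2 := tr_injective hk
    have h3 := congrArg (fun v : V p => Multiplicative.toAdd v 1) h2
    simp at h3

/-- **A homomorphism onto `Qd(p)` whose kernel is a `p`-group is injective in `p`-rank at most two.** -/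
theorem ker_eq_bot {p : ℕ} [hpf : Fact p.Prime] (hp : 3 < p) (n : ℕ) : ∀ {G : Type u} [Group G] [Finite G],
    Nat.card G ≤ n → ∀ (π : G →* ↥(Cfsg.qd p)), Function.Surjective π → IsPGroup p π.ker →
    Cfsg.PRankLE p 2 G → π.ker = ⊥ := by
  induction n with
  | zero =>
    intro G _ _ hn
    have := Nat.card_pos (α := G)
    omega
  | succ n ih =>
    intro G _ _ hn π hπ hU hr
    by_cases hperf : commutator G = ⊤
    · exact ker_eq_bot_perfect hp hperf π hπ hU hr
    have hH : Function.Surjective (π.comp (commutator G).subtype) := by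
      rw [← MonoidHom.range_eq_top, MonoidHom.range_eq_map, ← Subgroup.map_map, ← MonoidHom.range_eq_map,
        Subgroup.range_subtype, _root_.commutator_def, Subgroup.map_commutator,
        Subgroup.map_top_of_surjective _ hπ, ← _root_.commutator_def]
      exact qd_perfect hp
    have hlt : Nat.card (commutator G) ≤ n := by
      have h1 : Nat.card (commutator G) < Nat.card G := by
        refine lt_of_le_of_ne (Subgroup.card_le_card_group _) fun h => hperf ?_
        exact Subgroup.eq_top_of_card_eq _ h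
      omega
    have hinj := ih hlt (π.comp (commutator G).subtype) hH (by
        rintro ⟨x, hx⟩
        obtain ⟨k, hk⟩ := hU ⟨(x : G), hx⟩
        have h1 : (x : G) ^ p ^ k = 1 := congrArg Subtype.val hk
        exact ⟨k, Subtype.ext (Subtype.ext h1)⟩) (Cfsg.Agent.Omega.Sec.Faithful.prankLE_subgroup hr _)
    rw [eq_bot_iff]
    by_contra hcon
    obtain ⟨x, hx, hx1⟩ : ∃ x ∈ π.ker, x ≠ 1 := by
      by_contra hcon2
      push Not at hcon2
      exact hcon fun x hx => mem_bot.2 (hcon2 x hx)
    obtain ⟨k, hap, ha1⟩ := QdRank.exists_pow_prime hU hx hx1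
    set a := x ^ k with hadef
    have ha : a ∈ π.ker := π.ker.pow_mem hx k
    refine ha1 (no_central π _ hH hinj hr hap ha ?_)
    intro h hh
    have h1 : ⁅a, h⁆ ∈ commutator G := commutator_mem_commutator (mem_top _) (mem_top _)
    have h2 : π ⁅a, h⁆ = 1 := by
      rw [map_commutatorElement, MonoidHom.mem_ker.1 ha, commutatorElement_one_left]
    have h3 : (⟨⁅a, h⁆, h1⟩ : commutator G) ∈ (π.comp (commutator G).subtype).ker := h2
    rw [hinj, mem_bot] at h3
    exact commutatorElement_eq_one_iff_mul_comm.1 (congrArg Subtype.val h3)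

/-- **In `p`-rank at most two, `p > 3`, a section isomorphic to `Qd(p)` gives one with `p'`-kernel.** -/
theorem exists_subgroup {G : Type u} [Group G] [Finite G] {p : ℕ} [hpf : Fact p.Prime] (hp : 3 < p)
    (hr : Cfsg.PRankLE p 2 G) (K : Subgroup G) (f : K →* ↥(Cfsg.qd p)) (hf : Function.Surjective f) :
    ∃ (H : Subgroup G) (f : H →* ↥(Cfsg.qd p)), Function.Surjective f ∧ (Nat.card f.ker).Coprime p := by
  -- choose a minimal subgroup mapping onto `Qd(p)`
  obtain ⟨H, ⟨f, hf⟩, hmin⟩ : ∃ H : Subgroup G, (∃ f : H →* ↥(Cfsg.qd p), Function.Surjective f) ∧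
      ∀ L : Subgroup G, (∃ f : L →* ↥(Cfsg.qd p), Function.Surjective f) → Nat.card H ≤ Nat.card L := by
    have h1 : ∃ m : ℕ, ∃ H : Subgroup G, (∃ f : H →* ↥(Cfsg.qd p), Function.Surjective f) ∧ Nat.card H = m :=
      ⟨_, K, ⟨f, hf⟩, rfl⟩
    classical
    obtain ⟨H, hH1, hH2⟩ := Nat.find_spec h1
    refine ⟨H, hH1, fun L hL => ?_⟩
    rw [hH2]
    exact Nat.find_min' h1 ⟨L, hL, rfl⟩
  refine ⟨H, f, hf, ?_⟩
  -- the kernel lies in the Frattini subgroup
  have hfr : f.ker ≤ frattini H := by
    rw [frattini, Order.radical]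
    refine le_iInf₂ fun X hX => ?_
    by_contra hcon
    have h1 : X ⊔ f.ker = ⊤ := hX.2 _ (lt_of_le_of_ne le_sup_left fun h => hcon (by rw [h]; exact le_sup_right))
    have h2 : X.map f = ⊤ := by
      have h3 : (X ⊔ f.ker).map f = X.map f := by
        rw [Subgroup.map_sup, (Subgroup.map_eq_bot_iff _).2 le_rfl, sup_bot_eq]
      rw [← h3, h1, Subgroup.map_top_of_surjective _ hf]
    have h4 : Function.Surjective ((f.comp X.subtype).comp
        ((X.equivMapOfInjective H.subtype H.subtype_injective).symm.toMonoidHom)) := by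
      intro y
      have hy : y ∈ X.map f := by rw [h2]; trivial
      obtain ⟨x, hx, hxy⟩ := hy
      refine ⟨X.equivMapOfInjective H.subtype H.subtype_injective ⟨x, hx⟩, ?_⟩
      simpa using hxy
    have h5 := hmin (X.map H.subtype) ⟨_, h4⟩
    rw [Subgroup.card_map_of_injective H.subtype_injective] at h5
    exact hX.1 (Subgroup.eq_top_of_card_eq _ (le_antisymm (Subgroup.card_le_card_group _) h5))
  have hnil : Group.IsNilpotent f.ker := by
    have h0 : Group.IsNilpotent (frattini H) := frattini_nilpotent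
    have h1 : Group.IsNilpotent (f.ker.subgroupOf (frattini H)) := inferInstance
    exact Group.nilpotent_of_mulEquiv (Subgroup.subgroupOfEquivOfLe hfr)
  -- its `p'`-part
  obtain ⟨S, hS⟩ := KantorSeitz.exists_pPrimeElems hnil p
  set L : Subgroup H := S.map f.ker.subtype with hL
  have hLmem : ∀ x : H, x ∈ L ↔ x ∈ f.ker ∧ (orderOf x).Coprime p := by
    intro x
    rw [hL]
    constructor
    · rintro ⟨y, hy, rfl⟩
      refine ⟨y.2, ?_⟩
      have := (hS y).1 hy
      rwa [← Subgroup.orderOf_coe] at this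
    · rintro ⟨h1, h2⟩
      exact ⟨⟨x, h1⟩, (hS _).2 (by rwa [Subgroup.orderOf_mk]), rfl⟩
  have hLn : L.Normal := by
    refine ⟨fun x hx g => ?_⟩
    rw [hLmem] at hx ⊢
    refine ⟨(inferInstance : f.ker.Normal).conj_mem x hx.1 g, ?_⟩
    have h1 : orderOf (g * x * g⁻¹) = orderOf x := by
      have := orderOf_injective (MulAut.conj g).toMonoidHom (MulAut.conj g).injective x
      simpa using this
    rw [h1]
    exact hx.2
  have hLcop : (Nat.card L).Coprime p := by
    rw [Nat.coprime_comm, Nat.Prime.coprime_iff_not_dvd hpf.out]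
    intro hdvd
    obtain ⟨x, hx⟩ := exists_prime_orderOf_dvd_card' p hdvd
    have h1 := ((hLmem _).1 x.2).2
    rw [Subgroup.orderOf_coe, hx] at h1
    exact hpf.out.one_lt.ne' ((Nat.coprime_self p).1 h1)
  have hLk : L ≤ f.ker := fun x hx => ((hLmem x).1 hx).1
  let φ : H ⧸ L →* ↥(Cfsg.qd p) := QuotientGroup.lift L f hLk
  have hφ : Function.Surjective φ := by
    intro y
    obtain ⟨x, hx⟩ := hf y
    exact ⟨QuotientGroup.mk x, hx⟩
  have hφp : IsPGroup p φ.ker := by
    rintro ⟨x, hx⟩
    obtain ⟨x, rfl⟩ := QuotientGroup.mk_surjective x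
    have hx' : x ∈ f.ker := hx
    obtain ⟨k, m, hm, hord⟩ := Nat.exists_eq_pow_mul_and_not_dvd (orderOf_pos x).ne' p hpf.out.ne_one
    refine ⟨k, Subtype.ext ?_⟩
    change (QuotientGroup.mk x : H ⧸ L) ^ p ^ k = 1
    rw [← QuotientGroup.mk_pow, QuotientGroup.eq_one_iff, hLmem]
    refine ⟨f.ker.pow_mem hx' _, ?_⟩
    rw [orderOf_pow_of_dvd (pow_ne_zero _ hpf.out.ne_zero) (by rw [hord]; exact dvd_mul_right _ _), hord,
      Nat.mul_div_cancel_left _ (pow_pos hpf.out.pos k)]
    exact (((Nat.Prime.coprime_iff_not_dvd hpf.out).2 hm)).symm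
  have hker := ker_eq_bot hp _ le_rfl φ hφ hφp
    (Cfsg.Agent.Omega.Sec.Reduce.prankLE_quotient L hLcop (Cfsg.Agent.Omega.Sec.Faithful.prankLE_subgroup hr H))
  have hle : f.ker ≤ L := by
    intro x hx
    have h1 : (QuotientGroup.mk x : H ⧸ L) ∈ φ.ker := hx
    rw [hker, mem_bot, QuotientGroup.eq_one_iff] at h1
    exact h1
  rw [le_antisymm hle hLk]
  exact hLcop

end Cfsg.Agent.H963.QdMain
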